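import Mathlib
import Cfsg.Prelude.Def_OddOrderLocal
import Cfsg.Statements.S1350
import Cfsg.Statements.S1353
import Cfsg.Statements.S1354
import Cfsg.Statements.S1360
import Cfsg.Statements.S1375
import Cfsg.Statements.S1404
import Cfsg.Statements.S1405
import Cfsg.Statements.S1412
import Cfsg.Statements.S1414
import Cfsg.Statements.S1419
import Cfsg.Statements.S1420
import Cfsg.Statements.S1426
import Cfsg.Statements.S1429
import Cfsg.Statements.S1430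
import Cfsg.Statements.S1439

/-!
# S1440 (Bender–Glauberman Theorem 15.8, non-TI Fitting subgroup): package statements

Team project led by helper69.  Each `PK…` below is the exact statement of one package; a package is
a theorem `… : Cfsg.Agent.Lib.Helper69.BG40.PK….{u}` proved in the taker's own Lib file
(`Cfsg/Agent/Lib/<Seat>/BG40/PK….lean`).  The frozen statements are imported for their TYPES only
(`type_of%`); never use a frozen constant as a term.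

Notation of the paper proof: `F = F(M)`, `X = F ∩ g F g⁻¹ ≠ 1` (`g ∉ M`), `x ∈ X` of prime order
`p ∈ σ(M) \ β(M)`, `N` the unique maximal subgroup over `C_G(x)` (S1375), `D = M ∩ N` (a complement
of `N_σ` in `N`), `M_σ = P × Q` with `P` the Sylow `p`-subgroup and `Q` the `p'`-part (once `M_σ` is
known to be nilpotent), `z ∈ Z(P) ∩ P'` of order `p` (when `P` is non-abelian).
-/

set_option autoImplicit false

namespace Cfsg.Agent.Lib.Helper69.BG40

open Cfsg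

universe u

/-- `X = F(M) ∩ g F(M) g⁻¹`. -/
abbrev Xof {G : Type u} [Group G] (M : Subgroup G) (g : G) : Subgroup G :=
  fittingOf M ⊓ (fittingOf M).map (MulAut.conj g).toMonoidHom

/-- The local data at an element `x ∈ X` of prime order `p`: `x ∈ M_σ ∩ F(M)`, `C_G(x) ⊄ M`, and
`D` (in the application `D = M ∩ N`) contains `C_M(x)`, has all its nilpotent subgroups abelian and
has rank at most `2`. -/
structure Loc {G : Type u} [Group G] (M : Subgroup G) (p : ℕ) (x : G) (D : Subgroup G) : Prop where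
  hp : p.Prime
  hpσ : p ∈ sigma M
  hxσ : x ∈ sigmaCore M
  hxF : x ∈ fittingOf M
  hxo : orderOf x = p
  hnc : ¬ Subgroup.centralizer ({x} : Set G) ≤ M
  hCD : M ⊓ Subgroup.centralizer ({x} : Set G) ≤ D
  hab : ∀ B : Subgroup G, B ≤ D → Group.IsNilpotent ↥B → IsMulCommutative ↥B
  hrk : ∀ q : ℕ, q.Prime → ∀ A : Subgroup G, A ≤ D → IsElementaryAbelian q A → Nat.card ↥A ≤ q ^ 2

/-- `H = P × Q` internally, `P` a `p`-group and `Q` a `p'`-group (so `P` is the Sylow `p`-subgroup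
and `Q` the Hall `p'`-subgroup of the nilpotent group `H`). -/
structure Dec {G : Type u} [Group G] (p : ℕ) (H P Q : Subgroup G) : Prop where
  hP : P ≤ H
  hQ : Q ≤ H
  hPp : IsPGroup p ↥P
  hQp : (Nat.card ↥Q).Coprime p
  hcard : Nat.card ↥P * Nat.card ↥Q = Nat.card ↥H
  hcomm : ∀ a ∈ P, ∀ b ∈ Q, a * b = b * a

/-! ## Front end -/

/-- PKA.  `X` is a `σ(M)`-group inside `M_σ ∩ gMg⁻¹`, hence cyclic, `β(M)'`, meeting `(M_σ)'`
trivially (S1426 with `E = U ⊔ K`), and no element of prime order of `X` has its centralizer in `M`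
(S1404).  (`q ∉ σ(M)`, `q ∣ #X`: an element `a ∈ X` of order `q` lies in `Y = O_{σ'}(F(M))`, cyclic by
S1439; `⟨a⟩` is the subgroup of order `q` of `Y`, normal in `M`, so `N_G(⟨a⟩) = M`; the same in
`gMg⁻¹` gives `g ∈ N_G(⟨a⟩) = M`.) -/
def PKA : Prop :=
  ∀ {G : Type u} [Group G] [Finite G] (hG : Cfsg.IsMinSimpleOddOrder G)
    (_h1350 : type_of% (@Cfsg.CfsgFrozen.S1350 G _ _ hG))
    (_h1404 : type_of% (@Cfsg.CfsgFrozen.S1404 G _ _ hG))
    (_h1426 : type_of% (@Cfsg.CfsgFrozen.S1426 G _ _ hG))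
    (_h1439 : type_of% (@Cfsg.CfsgFrozen.S1439 G _ _ hG))
    (M : Subgroup G) (_hM : IsCoatom M) (K U : Subgroup G)
    (_hKU : Cfsg.IsSigmaDecomposition M K U) (g : G) (_hg : g ∉ M) (_hX : Xof M g ≠ ⊥),
    Xof M g ≤ sigmaCore M ∧ IsCyclic ↥(Xof M g) ∧
      (∀ q : ℕ, q.Prime → q ∣ Nat.card ↥(Xof M g) → q ∈ sigma M ∧ q ∉ beta M) ∧
      Xof M g ⊓ ⁅sigmaCore M, sigmaCore M⁆ = ⊥ ∧
      ∀ y ∈ Xof M g, (orderOf y).Prime → ¬ Subgroup.centralizer ({y} : Set G) ≤ M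

/-- PKB.  The maximal subgroup `N` over `C_G(x)` (S1375): `D = M ∩ N` is a complement of `N_σ` in
`N`, so a `σ(N)'`-group (S1350 for `N`): its nilpotent subgroups are abelian (S1420 for `N`) and it
has rank `≤ 2` (`α(N) ⊆ σ(N)` by S1405 for `N`). -/
def PKB : Prop :=
  ∀ {G : Type u} [Group G] [Finite G] (hG : Cfsg.IsMinSimpleOddOrder G)
    (_h1350 : type_of% (@Cfsg.CfsgFrozen.S1350 G _ _ hG))
    (_h1375 : type_of% (@Cfsg.CfsgFrozen.S1375 G _ _ hG))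
    (_h1405 : type_of% (@Cfsg.CfsgFrozen.S1405 G _ _ hG))
    (_h1420 : type_of% (@Cfsg.CfsgFrozen.S1420 G _ _ hG))
    (M : Subgroup G) (_hM : IsCoatom M) (p : ℕ) (_hp : p.Prime) (_hpσ : p ∈ sigma M) (x : G)
    (_hxσ : x ∈ sigmaCore M) (_hxF : x ∈ fittingOf M) (_hxo : orderOf x = p)
    (_hnc : ¬ Subgroup.centralizer ({x} : Set G) ≤ M),
    ∃ N : Subgroup G, IsCoatom N ∧ IsComplIn (M ⊓ N) (sigmaCore N) N ∧ Loc M p x (M ⊓ N)

/-- PKB2.  If the Sylow `p`-subgroups of `G` are non-abelian and `D = M ∩ N` (a complement of `N_σ`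
in `N`) contains an elementary abelian subgroup of order `p ^ 2`, then `τ₂(N) = {p}` (S1419), so
`D` has `q`-rank `≤ 1` for every prime `q ≠ p`.  (`p ∈ τ₂(N)`: `p ∉ σ(N)` as `p ∣ #D`, and
`α(N) ⊆ σ(N)`.) -/
def PKB2 : Prop :=
  ∀ {G : Type u} [Group G] [Finite G] (hG : Cfsg.IsMinSimpleOddOrder G)
    (_h1350 : type_of% (@Cfsg.CfsgFrozen.S1350 G _ _ hG))
    (_h1405 : type_of% (@Cfsg.CfsgFrozen.S1405 G _ _ hG))
    (_h1419 : type_of% (@Cfsg.CfsgFrozen.S1419 G _ _ hG))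
    (M N : Subgroup G) (_hM : IsCoatom M) (_hN : IsCoatom N)
    (_hc : IsComplIn (M ⊓ N) (sigmaCore N) N) (p : ℕ) [Fact p.Prime]
    (_hS : ∀ S : Sylow p G, ¬ IsMulCommutative ↥(S : Subgroup G))
    (A : Subgroup G) (_hA : A ≤ M ⊓ N) (_hAe : IsElementaryAbelian p A)
    (_hA2 : Nat.card ↥A = p ^ 2),
    ∀ q : ℕ, q.Prime → q ≠ p → ∀ B : Subgroup G, B ≤ M ⊓ N → IsElementaryAbelian q B →
      Nat.card ↥B ≤ q

/-- PKC.  `M_σ` is nilpotent and `M_F = M_σ`.  (`x` lies in the normal `p`-subgroup `O_p(F(M))` of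
`M`, which commutes with the normal `β(M)`-subgroup `M_β` (`p ∉ β(M)`), so `M_β ≤ C_M(x) ≤ D` has
rank `≤ 2`; `M_β` is a Hall `β(M)`-subgroup of `M` (S1414), so `β(M) = ∅` and the nilpotent Hall
`β(M)'`-subgroup of `M_σ` (S1414) is `M_σ`.  `M_F ≤ M_σ` always.) -/
def PKC : Prop :=
  ∀ {G : Type u} [Group G] [Finite G] (hG : Cfsg.IsMinSimpleOddOrder G)
    (_h1350 : type_of% (@Cfsg.CfsgFrozen.S1350 G _ _ hG))
    (_h1414 : type_of% (@Cfsg.CfsgFrozen.S1414 G _ _ hG))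
    (M : Subgroup G) (_hM : IsCoatom M) (p : ℕ) (_hpβ : p ∉ beta M) (x : G) (D : Subgroup G)
    (_hL : Loc M p x D),
    Group.IsNilpotent ↥(sigmaCore M) ∧ fittingHallOf M = sigmaCore M

/-- PKD.  `M' ≤ F(M)` (landed `Cfsg.Agent.S1456.result` in the group `↥M` with `E = ⟨x⟩`:
`C_{F(M)}(x) ≤ C_M(x) ≤ D` has rank `≤ 2`) and `F(M) = M_σ × O_{σ(M)'}(F(M))` (S1439 and
`F(M_σ) = M_σ`). -/
def PKD : Prop :=
  ∀ {G : Type u} [Group G] [Finite G] (hG : Cfsg.IsMinSimpleOddOrder G)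
    (_h1439 : type_of% (@Cfsg.CfsgFrozen.S1439 G _ _ hG))
    (M : Subgroup G) (_hM : IsCoatom M) (p : ℕ) (x : G) (D : Subgroup G) (_hL : Loc M p x D)
    (_hnil : Group.IsNilpotent ↥(sigmaCore M)),
    ⁅M, M⁆ ≤ fittingOf M ∧
      fittingOf M = sigmaCore M ⊔ piCoreOf {q | q.Prime ∧ q ∉ sigma M} (fittingOf M)

/-! ## Abstract tools -/

/-- PKdec.  Sylow decomposition of a nilpotent normal subgroup `H` of `M`
(`Helper16.BG.nil_decomp`; `P`, `Q` are the sets of `p`-elements / `p'`-elements of `H`). -/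
def PKdec : Prop :=
  ∀ {G : Type u} [Group G] [Finite G] (M H : Subgroup G)
    (_hn : M ≤ Subgroup.normalizer (H : Set G)) (_hnil : Group.IsNilpotent ↥H)
    (p : ℕ) [Fact p.Prime],
    ∃ P Q : Subgroup G, Dec p H P Q ∧ M ≤ Subgroup.normalizer (P : Set G) ∧
      M ≤ Subgroup.normalizer (Q : Set G)

/-- PKdecU.  Consequences of `H = P × Q`. -/
def PKdecU : Prop :=
  ∀ {G : Type u} [Group G] [Finite G] (p : ℕ) [Fact p.Prime] (H P Q : Subgroup G)
    (_hd : Dec p H P Q),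
    P ⊓ Q = ⊥ ∧ (∀ y ∈ H, ∃ a ∈ P, ∃ b ∈ Q, y = a * b) ∧
      (∀ y ∈ H, (∃ n : ℕ, y ^ p ^ n = 1) → y ∈ P) ∧
      (∀ y ∈ H, (orderOf y).Coprime p → y ∈ Q) ∧
      (IsMulCommutative ↥Q → ⁅H, H⁆ ≤ ⁅P, P⁆) ∧
      (IsMulCommutative ↥P → IsMulCommutative ↥Q → IsMulCommutative ↥H)

/-- PKT.  For `H = P × Q`: `O_p(H) = P` and `O_{p'}(H) = Q` (as subgroups of `G`). -/
def PKT : Prop :=
  ∀ {G : Type u} [Group G] [Finite G] (p : ℕ) [Fact p.Prime] (H P Q : Subgroup G)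
    (_hd : Dec p H P Q),
    (pCore p ↥H).map H.subtype = P ∧ (pPrimeCore p ↥H).map H.subtype = Q

/-- PKea2.  Two commuting elements of order `p`, neither a power of the other, generate an
elementary abelian group of order `p ^ 2`. -/
def PKea2 : Prop :=
  ∀ {G : Type u} [Group G] [Finite G] (p : ℕ) [Fact p.Prime] (x z : G) (_hx : orderOf x = p)
    (_hz : orderOf z = p) (_hc : x * z = z * x) (_hxz : x ∉ Subgroup.zpowers z),
    IsElementaryAbelian p (Subgroup.zpowers x ⊔ Subgroup.zpowers z) ∧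
      Nat.card ↥(Subgroup.zpowers x ⊔ Subgroup.zpowers z) = p ^ 2

/-- PKG3.  A finite abelian group all of whose elementary abelian `q`-subgroups have order `≤ q`
(every prime `q`) is cyclic. -/
def PKG3 : Prop :=
  ∀ {G : Type u} [Group G] [Finite G] (Q : Subgroup G) (_hab : IsMulCommutative ↥Q)
    (_h : ∀ q : ℕ, q.Prime → ∀ B : Subgroup G, B ≤ Q → IsElementaryAbelian q B →
      Nat.card ↥B ≤ q),
    IsCyclic ↥Q

/-- PKG4.  Every cyclic subgroup of a cyclic subgroup `Q` normalized by `M` is normalized by `M`. -/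
def PKG4 : Prop :=
  ∀ {G : Type u} [Group G] [Finite G] (M Q : Subgroup G)
    (_hn : M ≤ Subgroup.normalizer (Q : Set G)) (_hc : IsCyclic ↥Q) (w : G) (_hw : w ∈ Q),
    M ≤ Subgroup.normalizer ((Subgroup.zpowers w : Subgroup G) : Set G)

/-- PKG5c.  A cyclic `p`-group `X` containing an element `x` of order `p` that is not a proper
`p`-th power in `X` has order `p`. -/
def PKG5c : Prop :=
  ∀ {G : Type u} [Group G] [Finite G] (X : Subgroup G) (_hc : IsCyclic ↥X) (p : ℕ)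
    [Fact p.Prime] (_hpX : ∀ q : ℕ, q.Prime → q ∣ Nat.card ↥X → q = p) (x : G) (_hx : x ∈ X)
    (_hxo : orderOf x = p) (_h : ∀ y ∈ X, y ^ p ∈ Subgroup.zpowers x → y ^ p = 1),
    Nat.card ↥X = p

/-- PKpow.  If `u` normalizes the group `⟨w⟩` of prime order `q`, then `u ^ (q - 1)` centralizes
`w` (Fermat). -/
def PKpow : Prop :=
  ∀ {G : Type u} [Group G] (q : ℕ) [Fact q.Prime] (w u : G) (_hw : orderOf w = q)
    (_hu : u * w * u⁻¹ ∈ Subgroup.zpowers w),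
    u ^ (q - 1) * w = w * u ^ (q - 1)

/-- PKI0.  If `K` is a complement of `M_F` in `M`, then the exponent of `M / M_F` divides that of
`K`, and `|M : M_F| = #K`. -/
def PKI0 : Prop :=
  ∀ {G : Type u} [Group G] [Finite G] (M K : Subgroup G)
    (_hc : IsComplIn K (fittingHallOf M) M),
    Monoid.exponent (↥M ⧸ fittingHall ↥M) ∣ Monoid.exponent ↥K ∧
      (fittingHallOf M).relIndex M = Nat.card ↥K

/-- PKI2c2.  A cyclic group `K` of odd order prime to `p` acting (by conjugation) on a non-abelian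
group `P` of order `p ^ 3`, centralizing `Z(P)` and with `C_P(k) ≤ Z(P)` for all `k ≠ 1`, has
exponent dividing `p - 1` or order dividing `p + 1`.  (`K` acts semiregularly on the `p ^ 2 - 1`
non-identity elements of `P/Z(P)` and preserves the commutator pairing `P/Z × P/Z → Z(P)`; if some
`k ≠ 1` normalizes a subgroup `B` with `Z(P) < B < P`, acting on `B/Z` as `b ↦ b^λ`, it acts on
`P/B` as `λ⁻¹ ≠ λ`, so `B` and one other such subgroup are the only `k`-invariant ones, `K`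
normalizes `B` and acts faithfully on `B/Z(P)`: `k ^ (p - 1) = 1` for all `k`.  Otherwise `K` acts
semiregularly on the `p + 1` subgroups between `Z(P)` and `P`.) -/
def PKI2c2 : Prop :=
  ∀ {G : Type u} [Group G] [Finite G] (p : ℕ) [Fact p.Prime] (_hp2 : p ≠ 2) (P K : Subgroup G)
    (_hP : Nat.card ↥P = p ^ 3) (_hna : ¬ IsMulCommutative ↥P)
    (_hKn : K ≤ Subgroup.normalizer (P : Set G)) (_hKc : IsCyclic ↥K)
    (_hKodd : Odd (Nat.card ↥K)) (_hKcop : (Nat.card ↥K).Coprime p)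
    (_hfix : ∀ k ∈ K, k ≠ 1 → ∀ a ∈ P, k * a = a * k → ∀ b ∈ P, a * b = b * a)
    (_hZ : ∀ k ∈ K, ∀ a ∈ P, (∀ b ∈ P, a * b = b * a) → k * a = a * k),
    (∀ k ∈ K, k ^ (p - 1) = 1) ∨ Nat.card ↥K ∣ p + 1

/-! ## Case I: `M_σ` abelian -/

/-- PKE.  If `M_σ` is abelian then it has rank exactly `2`.  (`M_σ ≤ C_M(x) ≤ D` gives rank `≤ 2`.
If the `p`-rank were `≤ 1`, then `{a ∈ M_σ | a ^ p = 1} = ⟨x⟩` would be normal in `M`, so
`C_G(x) ≤ N_G(⟨x⟩) = M`.) -/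
def PKE : Prop :=
  ∀ {G : Type u} [Group G] [Finite G] (_hG : Cfsg.IsMinSimpleOddOrder G)
    (M : Subgroup G) (_hM : IsCoatom M) (p : ℕ) (x : G) (D : Subgroup G) (_hL : Loc M p x D)
    (_hab : IsMulCommutative ↥(sigmaCore M)),
    RankLE 2 ↥(sigmaCore M) ∧ ¬ RankLE 1 ↥(sigmaCore M)

/-- PKEK.  `U = 1` is impossible when `M_σ` is abelian: then `K` is a complement of `M_σ` in `M`,
so `C_{M_σ}(K) ≤ (M_σ)' = 1` by S1426, against S1354. -/
def PKEK : Prop :=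
  ∀ {G : Type u} [Group G] [Finite G] (hG : Cfsg.IsMinSimpleOddOrder G)
    (_h1350 : type_of% (@Cfsg.CfsgFrozen.S1350 G _ _ hG))
    (_h1354 : type_of% (@Cfsg.CfsgFrozen.S1354 G _ _ hG))
    (_h1426 : type_of% (@Cfsg.CfsgFrozen.S1426 G _ _ hG))
    (M : Subgroup G) (_hM : IsCoatom M) (K U : Subgroup G)
    (_hKU : Cfsg.IsSigmaDecomposition M K U) (_hU : U = ⊥)
    (_hab : IsMulCommutative ↥(sigmaCore M)),
    False

/-- PKF.  `K ≠ 1` forces `U = 1` (the argument of `Helper81.BG.s1372_core`): `U = [U, K] ≤ M' ≤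
F(M) = M_σ Y` (S1353), so `U` centralizes `Z(M_σ) ≠ 1`, against S1429 (`C_{M_σ}(Ω₁(S)) = 1` for a
Sylow subgroup `S` of `U`). -/
def PKF : Prop :=
  ∀ {G : Type u} [Group G] [Finite G] (hG : Cfsg.IsMinSimpleOddOrder G)
    (_h1350 : type_of% (@Cfsg.CfsgFrozen.S1350 G _ _ hG))
    (_h1353 : type_of% (@Cfsg.CfsgFrozen.S1353 G _ _ hG))
    (_h1429 : type_of% (@Cfsg.CfsgFrozen.S1429 G _ _ hG))
    (M : Subgroup G) (_hM : IsCoatom M) (K U : Subgroup G)
    (_hKU : Cfsg.IsSigmaDecomposition M K U) (_hK1 : K ≠ ⊥)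
    (_hnil : Group.IsNilpotent ↥(sigmaCore M)) (_hσ1 : sigmaCore M ≠ ⊥)
    (_hMF : ⁅M, M⁆ ≤ fittingOf M)
    (_hFY : fittingOf M =
      sigmaCore M ⊔ piCoreOf {q | q.Prime ∧ q ∉ sigma M} (fittingOf M)),
    U = ⊥

/-! ## Case II: `M_σ` non-abelian -/

/-- PKG1.  `P` non-abelian: there is `z ∈ Z(P) ∩ P'` of order `p`; `x ∈ P` is not central in `P`
(else `P ≤ C_M(x) ≤ D` would be abelian); and `⟨z⟩` is normal in `M` (for `m ∈ M` the elementary
abelian group `⟨x, z, m z m⁻¹⟩ ≤ C_M(x) ≤ D` has order `≤ p ^ 2` and `⟨x⟩ ∩ Z(P) = 1`). -/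
def PKG1 : Prop :=
  ∀ {G : Type u} [Group G] [Finite G] (_hG : Cfsg.IsMinSimpleOddOrder G)
    (M : Subgroup G) (_hM : IsCoatom M) (p : ℕ) (x : G) (D : Subgroup G) (_hL : Loc M p x D)
    (P Q : Subgroup G) (_hd : Dec p (sigmaCore M) P Q)
    (_hPn : M ≤ Subgroup.normalizer (P : Set G)) (_hPna : ¬ IsMulCommutative ↥P),
    x ∈ P ∧ ¬ (∀ a ∈ P, a * x = x * a) ∧
      ∃ z : G, z ∈ P ∧ orderOf z = p ∧ z ∈ ⁅P, P⁆ ∧ (∀ a ∈ P, a * z = z * a) ∧
        x ∉ Subgroup.zpowers z ∧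
        M ≤ Subgroup.normalizer ((Subgroup.zpowers z : Subgroup G) : Set G)

/-- PKG2.  `P` is a Sylow `p`-subgroup of `G` (`M_σ` is a Hall `σ(M)`-subgroup of `G`, S1350). -/
def PKG2 : Prop :=
  ∀ {G : Type u} [Group G] [Finite G] (hG : Cfsg.IsMinSimpleOddOrder G)
    (_h1350 : type_of% (@Cfsg.CfsgFrozen.S1350 G _ _ hG))
    (M : Subgroup G) (_hM : IsCoatom M) (p : ℕ) [Fact p.Prime] (_hpσ : p ∈ sigma M)
    (P Q : Subgroup G) (_hd : Dec p (sigmaCore M) P Q),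
    ∃ S : Sylow p G, (S : Subgroup G) = P

/-- PKG5b.  In the non-abelian Sylow `p`-subgroup `S ≤ M` of `G`, the non-central element `x` is
not a proper `p`-th power.  (Rank `≤ 2`: S1412 gives `S = P₁ P₂`, `[P₁, P₂] = 1`, `P₁` of exponent
`p`, `P₂` cyclic, so `y ^ p ∈ P₂ ≤ Z(S)`.  Rank `≥ 3`: `E = ⟨x, z⟩` is a maximal elementary abelian
subgroup of `S` (as `C_S(x) ≤ D` has rank `≤ 2`), so by the landed `Cfsg.Agent.S1453.result`
`T = C_S(Ω₁(Z₂(S)))` has index `p` and `E ⊄ T`; `z ∈ T`, `y ^ p ∈ T`.) -/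
def PKG5b : Prop :=
  ∀ {G : Type u} [Group G] [Finite G] (hG : Cfsg.IsMinSimpleOddOrder G)
    (_h1412 : type_of% (@Cfsg.CfsgFrozen.S1412 G _ _ hG))
    (M : Subgroup G) (_hM : IsCoatom M) (p : ℕ) [Fact p.Prime] (x : G) (D : Subgroup G)
    (_hL : Loc M p x D) (S : Sylow p G) (_hSM : (S : Subgroup G) ≤ M)
    (_hx : x ∈ (S : Subgroup G)) (_hxc : ¬ (∀ a ∈ (S : Subgroup G), a * x = x * a))
    (z : G) (_hz : z ∈ (S : Subgroup G)) (_hzo : orderOf z = p)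
    (_hzc : ∀ a ∈ (S : Subgroup G), a * z = z * a) (_hxz : x ∉ Subgroup.zpowers z),
    ∀ y ∈ (S : Subgroup G), y ^ p ∈ Subgroup.zpowers x → y ^ p = 1

/-- PKH.  Type `F` (`K = 1`): the exponent of `M / M_F` divides `q - 1` whenever `M_σ` has an
element `w` of prime order `q` with `⟨w⟩` normal in `M`.  (S1360 gives `U₀ ≤ U` of the same exponent
as `U` with no non-identity element centralizing a non-identity element of `M_σ`; for `u ∈ U₀`,
`u ^ (q - 1)` centralizes `w` (PKpow), so `u ^ (q - 1) = 1`; `M / M_F ≅ U`.) -/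
def PKH : Prop :=
  ∀ {G : Type u} [Group G] [Finite G] (hG : Cfsg.IsMinSimpleOddOrder G)
    (_h1360 : type_of% (@Cfsg.CfsgFrozen.S1360 G _ _ hG))
    (M : Subgroup G) (_hM : IsCoatom M) (K U : Subgroup G)
    (_hKU : Cfsg.IsSigmaDecomposition M K U) (_hK : K = ⊥)
    (_hHσ : fittingHallOf M = sigmaCore M) (q : ℕ) (_hq : q.Prime)
    (w : G) (_hwσ : w ∈ sigmaCore M) (_hwo : orderOf w = q)
    (_hwn : M ≤ Subgroup.normalizer ((Subgroup.zpowers w : Subgroup G) : Set G)),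
    Monoid.exponent (↥M ⧸ fittingHall ↥M) ∣ q - 1

/-- PKI1.  Type `P` (`K ≠ 1`): if `⟨w⟩ ≤ M_σ` of prime order `q` is normalized by `K` and `w` is
not centralized by `K`, then `k ^ (q - 1) = 1` for all `k ∈ K`.  (`k ^ (q - 1)` centralizes `w`
(PKpow); if it is `≠ 1` then `w ∈ C_{M_σ}(k ^ (q - 1)) = C_{M_σ}(K)` by S1430.) -/
def PKI1 : Prop :=
  ∀ {G : Type u} [Group G] [Finite G] (hG : Cfsg.IsMinSimpleOddOrder G)
    (_h1430 : type_of% (@Cfsg.CfsgFrozen.S1430 G _ _ hG))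
    (M : Subgroup G) (_hM : IsCoatom M) (K U : Subgroup G)
    (_hKU : Cfsg.IsSigmaDecomposition M K U) (_hK1 : K ≠ ⊥)
    (q : ℕ) (_hq : q.Prime) (w : G) (_hwσ : w ∈ sigmaCore M) (_hwo : orderOf w = q)
    (_hwn : K ≤ Subgroup.normalizer ((Subgroup.zpowers w : Subgroup G) : Set G))
    (_hwK : w ∉ Subgroup.centralizer (K : Set G)),
    ∀ k ∈ K, k ^ (q - 1) = 1

/-- PKI2a.  Rank `≥ 3`: `P` is narrow (`Helper46.BG.isNarrow_of_max_ea` with the maximal elementary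
abelian subgroup `⟨x, z⟩`; `C_P(x) ≤ D` has rank `≤ 2`), so by the landed `Cfsg.Agent.S1454.result`
every element of the `p'`-group `K` acting faithfully on `P` has order dividing `p - 1`. -/
def PKI2a : Prop :=
  ∀ {G : Type u} [Group G] [Finite G] (_hG : Cfsg.IsMinSimpleOddOrder G)
    (M : Subgroup G) (_hM : IsCoatom M) (p : ℕ) [Fact p.Prime] (x : G) (D : Subgroup G)
    (_hL : Loc M p x D) (P : Subgroup G) (_hPp : IsPGroup p ↥P) (_hPM : P ≤ M) (_hxP : x ∈ P)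
    (z : G) (_hz : z ∈ P) (_hzo : orderOf z = p) (_hzc : ∀ a ∈ P, a * z = z * a)
    (_hxz : x ∉ Subgroup.zpowers z) (_hr : ¬ PRankLE p 2 ↥P)
    (K : Subgroup G) (_hKM : K ≤ M) (_hKn : K ≤ Subgroup.normalizer (P : Set G))
    (_hKcop : (Nat.card ↥K).Coprime p)
    (_hKf : K ⊓ Subgroup.centralizer (P : Set G) = ⊥),
    ∀ k ∈ K, k ^ (p - 1) = 1

/-- PKI2c1.  Rank `≤ 2`, `K ≠ 1` with all non-identity elements having the same fixed points
`K* = C_P(K) ≠ 1` on the non-abelian Sylow `p`-subgroup `P = S` of `G`, and `K* ≤ P'`: then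
`#P = p ^ 3`, `K* = Z(P)`.  (S1412: `P = P₁ P₂`, `P' = P₁' = Z(P₁) = Ω₁(P₂)` of order `p`, so
`K* = P'`; `K` centralizes `Ω₁` of the cyclic group `P₂ = Z(P)`, hence `P₂`; so `P₂ ≤ K*` has order
`p` and `P = P₁`.) -/
def PKI2c1 : Prop :=
  ∀ {G : Type u} [Group G] [Finite G] (hG : Cfsg.IsMinSimpleOddOrder G)
    (_h1412 : type_of% (@Cfsg.CfsgFrozen.S1412 G _ _ hG))
    (p : ℕ) [Fact p.Prime] (S : Sylow p G) (_hr : PRankLE p 2 ↥(S : Subgroup G))
    (_hna : ¬ IsMulCommutative ↥(S : Subgroup G))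
    (K : Subgroup G) (_hKn : K ≤ Subgroup.normalizer ((S : Subgroup G) : Set G))
    (_hKcop : (Nat.card ↥K).Coprime p) (_hK1 : K ≠ ⊥)
    (_hfix : ∀ k ∈ K, k ≠ 1 → (S : Subgroup G) ⊓ Subgroup.centralizer ({k} : Set G) =
      (S : Subgroup G) ⊓ Subgroup.centralizer (K : Set G))
    (_hKs : (S : Subgroup G) ⊓ Subgroup.centralizer (K : Set G) ≤
      ⁅(S : Subgroup G), (S : Subgroup G)⁆)
    (_hKs1 : (S : Subgroup G) ⊓ Subgroup.centralizer (K : Set G) ≠ ⊥),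
    Nat.card ↥(S : Subgroup G) = p ^ 3 ∧
      (∀ k ∈ K, k ≠ 1 → ∀ a ∈ (S : Subgroup G), k * a = a * k →
        ∀ b ∈ (S : Subgroup G), a * b = b * a) ∧
      (∀ k ∈ K, ∀ a ∈ (S : Subgroup G), (∀ b ∈ (S : Subgroup G), a * b = b * a) → k * a = a * k)

/-! ## The open problem (NOT in B&G) -/

/-- PKeq — OPEN, probably not provable with B&G-level tools.  The frozen S1440 asserts
`⁅M, M⁆ = F(M)`; the book only has `M' ≤ F(M)`.  Equality is equivalent to
`O_{σ(M)'}(F(M)) ≤ M'`, which holds when `K ≠ 1` (then `U = 1` and `O_{σ(M)'}(F(M)) = 1`) but for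
`K = 1` fails exactly when some `r ∈ τ₂(M)` has `Ω₁(O_r(F(M)))` central in `M`. -/
def PKeq : Prop :=
  ∀ {G : Type u} [Group G] [Finite G] (_hG : Cfsg.IsMinSimpleOddOrder G)
    (M : Subgroup G) (_hM : IsCoatom M) (K U : Subgroup G)
    (_hKU : Cfsg.IsSigmaDecomposition M K U) (g : G) (_hg : g ∉ M) (_hX : Xof M g ≠ ⊥),
    piCoreOf {q | q.Prime ∧ q ∉ sigma M} (fittingOf M) ≤ ⁅M, M⁆

end Cfsg.Agent.Lib.Helper69.BG40
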